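import Cfsg.Agent.Lib.Transfer.Frobenius

/-!
Nilpotent Hall subgroups: conjugacy (Wielandt) and normal complements.
-/

set_option autoImplicit false

namespace Cfsg.Agent.Lib.Transfer

open Subgroup Cfsg.Agent.Lib.PGroup
open scoped Pointwise commutatorElement

variable {G : Type*} [Group G] [Finite G]

theorem IsSylowIn.trans {p : ℕ} [hp : Fact p.Prime] {S H K : Subgroup G} (hS : IsSylowIn p S H)
    (hHK : H ≤ K) (h : ¬ p ∣ H.relIndex K) : IsSylowIn p S K := by
  refine isSylowIn_of_not_dvd (hS.le.trans hHK) hS.isPGroup ?_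
  rw [← relIndex_mul_relIndex S H K hS.le hHK, hp.out.dvd_mul, not_or]
  exact ⟨hS.not_dvd_relIndex, h⟩

theorem IsSylowIn.top_of_hall {p : ℕ} [hp : Fact p.Prime] {S H : Subgroup G}
    (hS : IsSylowIn p S H) (hHall : Nat.Coprime (Nat.card H) H.index) (hd : p ∣ Nat.card H) :
    IsSylowIn p S ⊤ := by
  refine hS.trans le_top ?_
  rw [relIndex_top_right]
  exact fun h => hp.out.one_lt.ne' (Nat.eq_one_of_dvd_coprimes hHall hd h)

theorem commute_of_coprime_of_mem_nilpotent {H : Subgroup G} [Group.IsNilpotent H] {x y : G}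
    (hx : x ∈ H) (hy : y ∈ H) (h : (orderOf x).Coprime (orderOf y)) : Commute x y := by
  have := commute_of_coprime_of_isNilpotent (G := H) (x := ⟨x, hx⟩) (y := ⟨y, hy⟩)
    (by rw [← orderOf_coe, ← orderOf_coe]; exact h)
  exact congrArg Subtype.val this.eq

/-- In a nilpotent subgroup a Sylow `p`-subgroup contains all `p`-elements. -/
theorem IsSylowIn.mem_of_isNilpotent {p : ℕ} [Fact p.Prime] {S H : Subgroup G}
    [Group.IsNilpotent H] (hS : IsSylowIn p S H) {x : G} (hx : x ∈ H) {k : ℕ}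
    (hk : x ^ p ^ k = 1) : x ∈ S := by
  have h1 : (S.subgroupOf H).Normal := (inferInstance : (hS.toSylow : Subgroup H).Normal)
  exact hS.le_of_normalizes (isPGroup_zpowers hk) (zpowers_le_of_mem hx)
    ((zpowers_le_of_mem hx).trans (le_normalizer_of_normal_subgroupOf hS.le)) (mem_zpowers x)

theorem IsSylowIn.le_centralizer_of_isNilpotent {p : ℕ} [Fact p.Prime] {S H : Subgroup G}
    [Group.IsNilpotent H] (hS : IsSylowIn p S H) {x : G} (hx : x ∈ H)
    (hc : (orderOf x).Coprime p) : x ∈ centralizer (S : Set G) := by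
  rw [mem_centralizer_iff]
  intro s hs
  obtain ⟨k, hk⟩ := pow_eq_one_of_mem_isPGroup hS.isPGroup hs
  exact (commute_of_coprime_of_mem_nilpotent hx (hS.le hs)
    ((hc.pow_right k).coprime_dvd_right (orderOf_dvd_of_pow_eq_one hk))).symm.eq

/-- Wielandt: nilpotent Hall subgroups of the same order are conjugate (inside any subgroup `L`
containing both). -/
theorem exists_conj_eq_of_nilpotent_hall {H K L : Subgroup G} [Group.IsNilpotent H]
    [hK : Group.IsNilpotent K] (hHL : H ≤ L) (hKL : K ≤ L)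
    (hHall : Nat.Coprime (Nat.card H) H.index) (hc : Nat.card H = Nat.card K) :
    ∃ l ∈ L, MulAut.conj l • K = H := by
  obtain ⟨D, ⟨l, hl, rfl⟩, hmax⟩ := (wellFounded_gt (α := Subgroup G)).has_min
    {D | ∃ l ∈ L, D = H ⊓ MulAut.conj l • K} ⟨_, 1, one_mem _, rfl⟩
  refine ⟨l, hl, ?_⟩
  set K' := MulAut.conj l • K with hK'
  have hcK' : Nat.card K' = Nat.card H := by rw [hK', card_conj_smul, hc]
  haveI : Group.IsNilpotent K' := Group.nilpotent_of_mulEquiv (K.equivSMul (MulAut.conj l))
  have hK'L : K' ≤ L := conj_smul_le_of_le hKL ⟨l, hl⟩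
  by_contra hne
  have h1 : (H ⊓ K').relIndex H ≠ 1 := fun e => hne
    (eq_of_le_of_card_ge ((relIndex_eq_one.1 e).trans inf_le_right) hcK'.le).symm
  obtain ⟨p, hp, hd⟩ := Nat.exists_prime_and_dvd h1
  haveI := Fact.mk hp
  have hpH : p ∣ Nat.card H := hd.trans (relIndex_dvd_card _ _)
  obtain ⟨P, hP⟩ := exists_isSylowIn p H
  obtain ⟨Q, hQ⟩ := exists_isSylowIn p K'
  have hiK : K'.index = H.index := by
    have e1 := K'.card_mul_index
    rw [hcK', ← H.card_mul_index] at e1
    exact Nat.eq_of_mul_eq_mul_left Nat.card_pos e1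
  have hP' := hP.top_of_hall hHall hpH
  have hQ' := hQ.top_of_hall (by rw [hcK', hiK]; exact hHall) (hcK' ▸ hpH)
  set A : Set G := {d | d ∈ H ⊓ K' ∧ (orderOf d).Coprime p} with hA
  have hPA : P ≤ L ⊓ centralizer A := le_inf (hP.le.trans hHL) fun s hs =>
    mem_centralizer_iff.2 fun a ha =>
      (mem_centralizer_iff.1 (hP.le_centralizer_of_isNilpotent ha.1.1 ha.2) s hs).symm
  have hQA : Q ≤ L ⊓ centralizer A := le_inf (hQ.le.trans hK'L) fun s hs =>
    mem_centralizer_iff.2 fun a ha =>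
      (mem_centralizer_iff.1 (hQ.le_centralizer_of_isNilpotent ha.1.2 ha.2) s hs).symm
  obtain ⟨c, hc', e⟩ := (hQ'.of_le hQA le_top).exists_conj_eq (hP'.of_le hPA le_top)
  have hPK : P ≤ MulAut.conj (c * l) • K := by
    rw [← conj_smul_conj_smul, ← e]; exact conj_smul_mono hQ.le
  refine hmax _ ⟨c * l, mul_mem hc'.1 hl, rfl⟩ (lt_of_le_of_ne (le_inf inf_le_left ?_) ?_)
  · intro d hd
    obtain ⟨a, b, ha, hb, ⟨k, hk⟩, hb', rfl⟩ := exists_p_part_mul_p'_part (p := p) d
    refine mul_mem (hPK (hP.mem_of_isNilpotent (zpowers_le_of_mem hd ha).1 hk)) ?_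
    have hbD := zpowers_le_of_mem hd hb
    rw [← conj_smul_conj_smul, mem_conj_smul, mul_assoc,
      mem_centralizer_iff.1 hc'.2 b ⟨hbD, hb'⟩, inv_mul_cancel_left]
    exact hbD.2
  · intro e'
    apply hP.not_dvd_relIndex
    exact hd.trans (relIndex_dvd_of_le_left _ (e' ▸ le_inf hP.le hPK))

/-- A Hall subgroup has a normal complement if there is a normal `p`-complement for each prime
`p` dividing its order. -/
theorem exists_normal_complement_of_forall_prime {H : Subgroup G}
    (hHall : Nat.Coprime (Nat.card H) H.index)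
    (h : ∀ p : ℕ, p.Prime → p ∣ Nat.card H → HasNormalPComplement p G) :
    ∃ N : Subgroup G, N.Normal ∧ N.IsComplement' H := by
  let N : Subgroup G :=
    { carrier := {g | (orderOf g).Coprime (Nat.card H)}
      mul_mem' := fun {a b} ha hb => by
        apply Nat.Coprime.symm
        apply Nat.coprime_of_dvd
        intro p hp hd
        haveI := Fact.mk hp
        rw [← hp.coprime_iff_not_dvd, Nat.coprime_comm]
        exact hasNormalPComplement_iff_mul_closed.1 (h p hp hd) a b
          (Nat.Coprime.coprime_dvd_right hd ha) (Nat.Coprime.coprime_dvd_right hd hb)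
      one_mem' := by simp
      inv_mem' := fun {a} ha => by simpa using ha }
  have hN : N.Normal := ⟨fun a ha g => by
    change (orderOf (g * a * g⁻¹)).Coprime _
    rw [← MulAut.conj_apply, MulEquiv.orderOf_eq]; exact ha⟩
  refine ⟨N, hN, isComplement'_of_disjoint_and_mul_eq_univ ?_ ?_⟩
  · rw [Subgroup.disjoint_def]
    intro x hx hxH
    exact orderOf_eq_one_iff.1 (Nat.eq_one_of_dvd_coprimes hx dvd_rfl (H.orderOf_dvd_natCard hxH))
  · rw [← normal_mul, coe_eq_univ, ← index_eq_one]
    by_contra hne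
    obtain ⟨q, hq, hd⟩ := Nat.exists_prime_and_dvd hne
    haveI := Fact.mk hq
    have h1 : ¬ q ∣ Nat.card H := fun e => hq.one_lt.ne' (Nat.eq_one_of_dvd_coprimes hHall e
      (hd.trans (index_dvd_of_le le_sup_right)))
    obtain ⟨R⟩ := Sylow.nonempty (p := q) (G := G)
    have h2 : (R : Subgroup G) ≤ N := fun x hx => by
      obtain ⟨k, hk⟩ := pow_eq_one_of_mem_isPGroup R.isPGroup' hx
      exact ((hq.coprime_iff_not_dvd.2 h1).pow_left k).coprime_dvd_left
        (orderOf_dvd_of_pow_eq_one hk)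
    exact R.not_dvd_index (hd.trans (index_dvd_of_le (h2.trans le_sup_left)))

/-- A nilpotent Hall subgroup controlling its own fusion has a normal complement. -/
theorem exists_normal_complement_of_nilpotent_hall {H : Subgroup G} [Group.IsNilpotent H]
    (hHall : Nat.Coprime (Nat.card H) H.index)
    (h : ∀ x ∈ H, ∀ g : G, g * x * g⁻¹ ∈ H → ∃ k ∈ H, k * x * k⁻¹ = g * x * g⁻¹) :
    ∃ N : Subgroup G, N.Normal ∧ N.IsComplement' H := by
  apply exists_normal_complement_of_forall_prime hHall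
  intro p hp hd
  haveI := Fact.mk hp
  obtain ⟨P, hP⟩ := exists_isSylowIn p H
  exact hasNormalPComplement_of_control (hP.top_of_hall hHall hd).toSylowTop hP.le
    (fun x hx g hg => h x (hP.le hx) g (hP.le hg)) hasNormalPComplement_of_isNilpotent

end Cfsg.Agent.Lib.Transfer
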